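import Mathlib
import Cfsg.Agent.S0444
import Cfsg.Agent.Lib.Helper33.Sections
import Cfsg.Agent.Lib.Helper61.S4Transv

/-!
helper61: two "transvections" `b`, `k b k⁻¹` on an elementary abelian 2-group `V` whose product has
odd order: the cube of the product centralizes `V`.  Also: two distinct involutions satisfying the
braid relation give a section isomorphic to the symmetric group of degree 3.
-/

set_option autoImplicit false

namespace Cfsg.Agent.Lib.Helper61.S3Transv

open Cfsg Subgroup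
open scoped Pointwise commutatorElement
open Cfsg.Agent.Lib.Helper61.S4Transv

theorem involves_s3_of_injective {Q : Type*} [Group Q] (φ : Equiv.Perm (Fin 3) →* Q)
    (hφ : Function.Injective φ) : Involves (Equiv.Perm (Fin 3)) Q :=
  Cfsg.Agent.Lib.Helper33.involves_subgroup φ.range
    (Cfsg.Agent.Lib.Helper33.involves_of_equiv (MonoidHom.ofInjective hφ).symm
      (Cfsg.Agent.Lib.Helper33.involves_self _))

theorem involves_s3 {Q : Type*} [Group Q] (d e : Q) (hdd : d * d = 1) (hee : e * e = 1)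
    (hbr : d * e * d = e * d * e) (hne : d ≠ e) : Involves (Equiv.Perm (Fin 3)) Q := by
  have hd1 : d ≠ 1 := by
    rintro rfl
    apply hne
    simp only [one_mul, mul_one] at hbr
    rw [hee] at hbr
    exact hbr.symm
  have he1 : e ≠ 1 := by
    rintro rfl
    apply hne
    simp only [one_mul, mul_one] at hbr
    rw [hdd] at hbr
    exact hbr.symm
  let φ : Equiv.Perm (Fin 3) →* Q :=
    MonoidHom.mk' (Cfsg.Agent.S0444.f d e) (Cfsg.Agent.S0444.f_mul d e hdd hee hbr)
  apply involves_s3_of_injective φ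
  rw [injective_iff_map_eq_one]
  intro σ hσ
  change Cfsg.Agent.S0444.f d e σ = 1 at hσ
  rcases Cfsg.Agent.S0444.cases6 σ with rfl | rfl | rfl | rfl | rfl | rfl
  · rfl
  · rw [Cfsg.Agent.S0444.fs] at hσ; exact absurd hσ hd1
  · rw [Cfsg.Agent.S0444.ft] at hσ; exact absurd hσ he1
  · rw [Cfsg.Agent.S0444.fst] at hσ
    exfalso; apply hne
    calc d = d * (e * e) := by rw [hee, mul_one]
      _ = (d * e) * e := by group
      _ = e := by rw [hσ, one_mul]
  · rw [Cfsg.Agent.S0444.fts] at hσ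
    exfalso; apply hne
    symm
    calc e = e * (d * d) := by rw [hdd, mul_one]
      _ = (e * d) * d := by group
      _ = d := by rw [hσ, one_mul]
  · rw [Cfsg.Agent.S0444.fsts] at hσ
    exfalso; apply he1
    calc e = (d * d) * e * (d * d) := by rw [hdd]; group
      _ = d * (d * e * d) * d := by group
      _ = 1 := by rw [hσ, mul_one, hdd]

variable {Y : Type*} [Group Y]

theorem cube_centralizes [Finite Y] (V : Subgroup Y)
    (hVc : ∀ x ∈ V, ∀ y ∈ V, x * y = y * x) (hV2 : ∀ x ∈ V, x * x = 1)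
    (b k β : Y) (hbN : b ∈ normalizer (V : Set Y)) (hkN : k ∈ normalizer (V : Set Y)) (hβ : β ∈ V)
    (htr : ∀ v ∈ V, b * v * b⁻¹ = v ∨ b * v * b⁻¹ = v * β)
    (hodd : (orderOf (k * b * k⁻¹ * b)).Coprime 2) :
    (k * b * k⁻¹ * b) ^ 3 ∈ centralizer (V : Set Y) := by
  have : Fact (Nat.Prime 2) := ⟨Nat.prime_two⟩
  have hconj : ∀ g ∈ normalizer (V : Set Y), ∀ v ∈ V, g * v * g⁻¹ ∈ V := by
    intro g hg v hv
    exact (mem_normalizer_iff.mp hg v).mp hv
  set c := k * b * k⁻¹ with hc
  set yh := c * b with hyh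
  set γ := k * β * k⁻¹ with hγdef
  have hcN : c ∈ normalizer (V : Set Y) := mul_mem (mul_mem hkN hbN) (inv_mem hkN)
  have hyN : yh ∈ normalizer (V : Set Y) := mul_mem hcN hbN
  have hγ : γ ∈ V := hconj k hkN β hβ
  have htc : ∀ v ∈ V, c * v * c⁻¹ = v ∨ c * v * c⁻¹ = v * γ := by
    intro v hv
    have hv' : k⁻¹ * v * k ∈ V := by simpa using hconj k⁻¹ (inv_mem hkN) v hv
    rcases htr _ hv' with h | h
    · left
      calc c * v * c⁻¹ = k * (b * (k⁻¹ * v * k) * b⁻¹) * k⁻¹ := by rw [hc]; group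
        _ = v := by rw [h]; group
    · right
      calc c * v * c⁻¹ = k * (b * (k⁻¹ * v * k) * b⁻¹) * k⁻¹ := by rw [hc]; group
        _ = v * γ := by rw [h, hγdef]; group
  have hact : ∀ v : Y, yh * v * yh⁻¹ = c * (b * v * b⁻¹) * c⁻¹ := by
    intro v
    rw [hyh]; group
  have hββ : β * β = 1 := hV2 β hβ
  have hγγ : γ * γ = 1 := hV2 γ hγ
  have hβγ : β * γ = γ * β := hVc β hβ γ hγ
  have hbβ : b * β * b⁻¹ = β := by
    rcases htr β hβ with h | h
    · exact h
    · rw [hββ, conj_eq_one_iff] at h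
      rw [h]; group
  have hcγ : c * γ * c⁻¹ = γ := by
    rcases htc γ hγ with h | h
    · exact h
    · rw [hγγ, conj_eq_one_iff] at h
      rw [h]; group
  set W : Subgroup Y := closure {β, γ} with hW
  have hβW : β ∈ W := subset_closure (by simp)
  have hγW : γ ∈ W := subset_closure (by simp)
  have hWV : W ≤ V := by
    rw [hW, closure_le]
    rintro x (rfl | rfl)
    · exact hβ
    · exact hγ
  have hVp : IsPGroup 2 V := by
    rintro ⟨x, hx⟩
    refine ⟨1, Subtype.ext ?_⟩
    simp only [pow_one, Subgroup.coe_one, pow_two]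
    exact hV2 x hx
  have hWp : IsPGroup 2 W := hVp.to_le hWV
  have hbW : ∀ v ∈ V, v⁻¹ * (b * v * b⁻¹) ∈ W := by
    intro v hv
    rcases htr v hv with h | h
    · rw [h]; simp
    · rw [h]; simpa using hβW
  have hcW : ∀ v ∈ V, v⁻¹ * (c * v * c⁻¹) ∈ W := by
    intro v hv
    rcases htc v hv with h | h
    · rw [h]; simp
    · rw [h]; simpa using hγW
  have hyW : ∀ v ∈ V, v⁻¹ * (yh * v * yh⁻¹) ∈ W := by
    intro v hv
    rw [hact v]
    have h1 := hbW v hv
    have h2 := hcW _ (hconj b hbN v hv)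
    have := W.mul_mem h1 h2
    convert this using 1
    group
  have hcomm : ∀ v ∈ V, ⁅v, yh⁆ ∈ W := by
    intro v hv
    have h1 := W.inv_mem (hyW v hv)
    have h2 : (yh * v * yh⁻¹) * v⁻¹ = v⁻¹ * (yh * v * yh⁻¹) :=
      hVc _ (hconj yh hyN v hv) _ (V.inv_mem hv)
    rw [← h2] at h1
    convert h1 using 1
    rw [commutatorElement_def]; group
  have hnorm : yh ∈ normalizer (W : Set Y) := by
    apply Subgroup.mem_normalizer_fintype
    intro w hw
    have := W.mul_mem hw (hyW w (hWV hw))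
    show yh * w * yh⁻¹ ∈ W
    convert this using 1
    group
  have hpow : ∀ a ∈ zpowers yh, ∀ v ∈ V, ⁅v, a⁆ ∈ W := by
    intro a ha v hv
    have h1 : ⁅V, closure {yh}⁆ ≤ W := by
      apply Cfsg.Agent.Lib.Helper47.commutator_closure_le
      rintro s rfl
      exact ⟨hnorm, hcomm⟩
    rw [← zpowers_eq_closure] at h1
    exact h1 (commutator_mem_commutator hv ha)
  have key : ∀ a ∈ zpowers yh, Commute a β → Commute a γ → a ∈ centralizer (V : Set Y) := by
    intro a ha h1 h2
    have hao : (orderOf a).Coprime 2 :=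
      Nat.Coprime.coprime_dvd_left (orderOf_dvd_of_mem_zpowers ha) hodd
    have h3 : ∀ y ∈ W, Commute y a := by
      have : W ≤ centralizer {a} := by
        rw [hW, closure_le]
        rintro x (rfl | rfl)
        · exact mem_centralizer_singleton_iff.mpr h1.symm.eq
        · exact mem_centralizer_singleton_iff.mpr h2.symm.eq
      intro y hy
      exact (mem_centralizer_singleton_iff.mp (this hy))
    have h4 := Cfsg.Agent.Lib.Helper47.centralizes_of_step hao hWp (hpow a ha) h3
    rw [mem_centralizer_iff]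
    intro v hv
    exact (h4 v hv).eq
  have hyself : yh ∈ zpowers yh := mem_zpowers yh
  have hy3mem : yh ^ 3 ∈ zpowers yh := Subgroup.pow_mem _ hyself 3
  have Eβ0 : yh * β * yh⁻¹ = c * β * c⁻¹ := by rw [hact β, hbβ]
  have hconjmul : ∀ a u v : Y, a * (u * v) * a⁻¹ = (a * u * a⁻¹) * (a * v * a⁻¹) := by
    intro a u v; group
  have triv : yh ∈ centralizer (V : Set Y) → yh ^ 3 ∈ centralizer (V : Set Y) :=
    fun h => Subgroup.pow_mem _ h 3
  rcases htc β hβ with h1 | h1 <;> rcases htr γ hγ with h2 | h2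
  · apply triv
    apply key yh hyself
    · exact commute_of_conj_eq (Eβ0.trans h1)
    · apply commute_of_conj_eq
      rw [hact γ, h2, hcγ]
  · have e1 : yh * β * yh⁻¹ = β := Eβ0.trans h1
    have e2 : yh * γ * yh⁻¹ = γ * β := by
      rw [hact γ, h2, hconjmul, hcγ, h1]
    apply triv
    apply key yh hyself
    · exact commute_of_conj_eq e1
    · apply commute_of_sq hodd
      apply commute_of_conj_eq
      calc yh * yh * γ * (yh * yh)⁻¹ = yh * (yh * γ * yh⁻¹) * yh⁻¹ := by group
        _ = γ * (β * β) := by rw [e2, hconjmul, e2, e1]; group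
        _ = γ := by rw [hββ, mul_one]
  · have e1 : yh * β * yh⁻¹ = β * γ := Eβ0.trans h1
    have e2 : yh * γ * yh⁻¹ = γ := by
      rw [hact γ, h2, hcγ]
    apply triv
    apply key yh hyself
    · apply commute_of_sq hodd
      apply commute_of_conj_eq
      calc yh * yh * β * (yh * yh)⁻¹ = yh * (yh * β * yh⁻¹) * yh⁻¹ := by group
        _ = β * (γ * γ) := by rw [e1, hconjmul, e2, e1]; group
        _ = β := by rw [hγγ, mul_one]
    · exact commute_of_conj_eq e2
  · have Eβ : yh * β * yh⁻¹ = β * γ := Eβ0.trans h1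
    have Eγ : yh * γ * yh⁻¹ = β := by
      rw [hact γ, h2, hconjmul, hcγ, h1, ← mul_assoc, ← hβγ, mul_assoc, hγγ, mul_one]
    have Eβγ : yh * (β * γ) * yh⁻¹ = γ := by
      rw [hconjmul, Eβ, Eγ, hβγ, mul_assoc, hββ, mul_one]
    have c1 : yh * β = β * γ * yh := mul_inv_eq_iff_eq_mul.mp Eβ
    have c2 : yh * γ = β * yh := mul_inv_eq_iff_eq_mul.mp Eγ
    have c3 : yh * (β * γ) = γ * yh := mul_inv_eq_iff_eq_mul.mp Eβγ
    have hy3e : yh ^ 3 = yh * yh * yh := by rw [pow_succ, pow_succ, pow_one]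
    apply key _ hy3mem
    · show yh ^ 3 * β = β * yh ^ 3
      rw [hy3e]
      calc yh * yh * yh * β = yh * yh * (yh * β) := by group
        _ = yh * (yh * (β * γ)) * yh := by rw [c1]; group
        _ = (yh * γ) * yh * yh := by rw [c3]; group
        _ = β * (yh * yh * yh) := by rw [c2]; group
    · show yh ^ 3 * γ = γ * yh ^ 3
      rw [hy3e]
      calc yh * yh * yh * γ = yh * yh * (yh * γ) := by group
        _ = yh * (yh * β) * yh := by rw [c2]; group
        _ = (yh * (β * γ)) * yh * yh := by rw [c1]; group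
        _ = γ * (yh * yh * yh) := by rw [c3]; group

end Cfsg.Agent.Lib.Helper61.S3Transv
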